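import Cfsg.Agent.McLCover.Data
import Cfsg.Agent.McLCover.LatticeData
import Cfsg.Agent.McLCover.Step.Upper
import Cfsg.Agent.Leech.McLSimple
import Cfsg.Agent.M22Cover.Model
import Cfsg.Agent.Schur.Chain
import Cfsg.Agent.Schur.PackedBase

/-!
Seven automorphisms of the Leech lattice fixing two vectors and permuting 275 vectors: they generate `McL`,
whose relators bound every group they generate by 898128000.
-/

set_option autoImplicit false
set_option maxRecDepth 100000

namespace CfsgLib.McLCover

open CfsgLib.CosetEnum CfsgLib.Schur CfsgLib.Leech Cfsg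
open CfsgLib.Mathieu.Multiplier (permAt)
open scoped Pointwise

attribute [local irreducible] gFwd gBwd extraRels uWords hLevels basePts hWords vecCodes coordPerms
  genOps traces

/-- The relators. -/
def mclRels : List (List ℕ) := M22Cover.rels ++ extraRels

theorem mclRels_lt : mclRels.all (fun w => w.all fun x => x.blt 7) = true := by decide +kernel

theorem mclRels_sq : (List.range 7).all (fun x => mclRels.contains [x, x]) = true := by decide +kernel

section Bound

variable {Q : Type} [Group Q] (v : ℕ → Q)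

theorem involution_of_mclRels (hv : ∀ w ∈ mclRels, gword v w = 1) : ∀ x < 7, v x * v x = 1 := by
  intro x hx
  simpa [gword] using hv _ (List.contains_iff_mem.1
    (List.all_eq_true.1 mclRels_sq x (List.mem_range.2 hx)))

/-- Any group generated by seven elements with these relations has order at most 898128000. -/
theorem card_seg_le (hv : ∀ w ∈ mclRels, gword v w = 1) :
    Nat.card (Chain.seg v 7) ≤ 898128000 ∧ Nat.card (Chain.seg v 7) ≠ 0 := by
  have h6 := M22Cover.card_initSeg_le v fun w hw => hv w (List.mem_append_left _ hw)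
  exact Chain.step (m := 6) (n := 2025) v mclRels 7 mclRels_lt (involution_of_mclRels v hv) hv rfl
    (fun _ => rfl) Step.facts Step.n_pos Step.node_zero Step.rows rfl (by decide +kernel) (by norm_num)
    h6 (by norm_num)

end Bound

theorem tables_ok : PackedPerm.tablesOK 275 gFwd gBwd = true ∧ gFwd.length = 7 := by decide +kernel

/-- A generator as a permutation. -/
def gperm (x : ℕ) : Equiv.Perm (Fin 275) := PackedPerm.toPerm tables_ok.1 x

theorem gperm_rels : ∀ w ∈ mclRels, gword gperm w = 1 := by
  have key : mclRels.all (fun w => w.all (fun x => decide (x < gFwd.length)) &&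
      (List.range 275).all fun i => PackedPerm.act gFwd w i == i) = true := by decide +kernel
  intro w hw
  have h := List.all_eq_true.1 key w hw
  rw [Bool.and_eq_true] at h
  exact Equiv.ext fun i => Fin.ext (by
    show ((gword (PackedPerm.toPerm tables_ok.1) w) i).val = i.val
    rw [PackedPerm.word_apply tables_ok.1 h.1]
    exact beq_iff_eq.1 (List.all_eq_true.1 h.2 i (List.mem_range.2 i.2)))

/-- The group of permutations. -/
def K : Subgroup (Equiv.Perm (Fin 275)) := Chain.seg gperm 7

theorem gperm_mem {x : ℕ} (hx : x < 7) : gperm x ∈ K := Subgroup.subset_closure ⟨x, hx, rfl⟩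

theorem gword_mem_K {w : List ℕ} (hw : w.all (fun x => decide (x < gFwd.length)) = true) :
    gword gperm w ∈ K :=
  gword_mem K _ fun x hx => gperm_mem (tables_ok.2 ▸ of_decide_eq_true (List.all_eq_true.1 hw x hx))

/-- A word of generators of the point stabiliser in the seven generators. -/
def expand (w : List ℕ) : List ℕ := w.flatMap fun k => hWords.getD k []

/-- The transversals. -/
def kLevels : List (List (List ℕ)) := uWords :: hLevels.map fun l => l.map expand

theorem chain_checks : (List.range 5).all (PackedBase.levelOK 275 gFwd kLevels basePts) = true ∧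
    ((List.range 5).map fun j => (kLevels.getD j []).length).prod = 898128000 ∧
    (List.range 5).all (fun k => (kLevels.getD k []).all
      (fun w => w.all fun x => decide (x < gFwd.length))) = true := by
  decide +kernel

theorem kLevels_mem : ∀ k < 5, ∀ w ∈ kLevels.getD k [], gword gperm w ∈ K := fun k hk w hw =>
  gword_mem_K (List.all_eq_true.1 (List.all_eq_true.1 chain_checks.2.2 k (List.mem_range.2 hk)) w hw)

theorem card_K : Nat.card K = 898128000 :=
  le_antisymm (card_seg_le gperm gperm_rels).1 (chain_checks.2.1 ▸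
    PackedBase.prod_le_card tables_ok.1 K kLevels basePts 5 chain_checks.1 kLevels_mem)

theorem eq_one_of_base {g : Equiv.Perm (Fin 275)} (hg : g ∈ K)
    (hfix : ∀ j < 5, ∀ i : Fin 275, i.val = basePts.getD j 0 → g i = i) : g = 1 :=
  PackedBase.eq_one_of_base tables_ok.1 K kLevels basePts 5 chain_checks.1 kLevels_mem
    (by rw [chain_checks.2.1, card_K]) hg hfix

/-- Words with the same effect on the base. -/
def sameB (u w : List ℕ) : Bool :=
  u.all (fun x => decide (x < gFwd.length)) && w.all (fun x => decide (x < gFwd.length)) &&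
    (List.range 5).all fun j =>
      PackedPerm.act gFwd u (basePts.getD j 0) == PackedPerm.act gFwd w (basePts.getD j 0)

theorem gword_eq_of_sameB {u w : List ℕ} (h : sameB u w = true) : gword gperm u = gword gperm w := by
  simp only [sameB, Bool.and_eq_true, List.all_eq_true (l := List.range 5), List.mem_range,
    beq_iff_eq] at h
  obtain ⟨⟨hu, hw⟩, he⟩ := h
  refine inv_mul_eq_one.1 (eq_one_of_base (mul_mem (inv_mem (gword_mem_K hu)) (gword_mem_K hw))
    fun j hj i hi => ?_)
  rw [Equiv.Perm.mul_apply, Equiv.Perm.inv_def, Equiv.symm_apply_eq]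
  refine Fin.ext ?_
  show ((gword (PackedPerm.toPerm tables_ok.1) w) i).val =
    ((gword (PackedPerm.toPerm tables_ok.1) u) i).val
  rw [PackedPerm.word_apply tables_ok.1 hw, PackedPerm.word_apply tables_ok.1 hu, hi, he j hj]

/-! ### The elements of the lattice group -/

/-- The word with a given mask. -/
def maskVec (a : ℕ) : GolayPt → ZMod 2 := fun q => if a.testBit (Golay.idx q).val then 1 else 0

/-- A decoded vector. -/
def dec (c : ℕ) : GolayPt → ℤ := fun q => ((c >>> (5 * (Golay.idx q).val)) % 32 : ℕ) - 16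

/-- The map of an elementary operation. -/
def opFun (o : ℕ × ℕ) (x : GolayPt → ℤ) : GolayPt → ℤ :=
  if o.1 = 0 then signFun (maskVec o.2) x
  else if o.1 = 1 then fun q => x ((permAt coordPerms o.2).symm q)
  else xiFun x

/-- An elementary operation is defined. -/
def opOK (o : ℕ × ℕ) : Prop :=
  (o.1 = 0 → (∀ t : ZMod 23, dot₂ (qrWord t) (maskVec o.2) = 0) ∧ dot₂ 1 (maskVec o.2) = 0) ∧
    (o.1 = 1 → ∀ b ∈ Golay.basisMasks,
      Golay.inCode (Golay.toMask (permAt coordPerms o.2 • Golay.ofMask b)) = true)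

open scoped Classical in
/-- An elementary operation as an element. -/
noncomputable def opElt (o : ℕ × ℕ) : Co0 :=
  if o.1 = 0 then (if hc : maskVec o.2 ∈ golayCode then signs _ hc else 1)
  else if o.1 = 1 then (if hm : permAt coordPerms o.2 ∈ M24 then permHom ⟨_, hm⟩ else 1)
  else xi

theorem opElt_sgn {o : ℕ × ℕ} (h0 : o.1 = 0) (hc : maskVec o.2 ∈ golayCode) :
    opElt o = signs _ hc := by
  simp only [opElt, h0, ↓reduceIte, dif_pos hc]

theorem opElt_per {o : ℕ × ℕ} (h1 : o.1 = 1) {σ : Equiv.Perm GolayPt}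
    (hσ : permAt coordPerms o.2 = σ) (hm : σ ∈ M24) : opElt o = permHom ⟨σ, hm⟩ := by
  subst hσ
  simp only [opElt, h1, Nat.one_ne_zero, ↓reduceIte, dif_pos hm]

theorem opElt_xi {o : ℕ × ℕ} (h0 : o.1 ≠ 0) (h1 : o.1 ≠ 1) : opElt o = xi := by
  simp only [opElt, h0, h1, ↓reduceIte]

theorem opElt_apply {o : ℕ × ℕ} (h : opOK o) (v : leechLattice) :
    ((opElt o • v : leechLattice) : GolayPt → ℤ) = opFun o v := by
  by_cases h0 : o.1 = 0
  · rw [opElt_sgn h0 ((mem_code_iff _).2 (h.1 h0)), show opFun o v = signFun (maskVec o.2) v from if_pos h0]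
    funext i
    exact signs_apply _ _ _ _
  by_cases h1 : o.1 = 1
  · have hf : opFun o v = fun q => (v : GolayPt → ℤ) ((permAt coordPerms o.2).symm q) :=
      (if_neg h0).trans (if_pos h1)
    have hm := Golay.mem_M24_iff.2 (h.2 h1)
    obtain ⟨σ, hσ⟩ : ∃ σ, permAt coordPerms o.2 = σ := ⟨_, rfl⟩
    rw [hσ] at hf hm
    rw [opElt_per h1 hσ hm, hf]
    exact funext fun i => permHom_apply ⟨σ, hm⟩ v i
  · rw [opElt_xi h0 h1, show opFun o v = xiFun v from (if_neg h0).trans (if_neg h1)]
    exact xi_apply v

theorem ops_checks : ∀ l ∈ genOps, ∀ o ∈ l, (o.1 = 0 → (∀ t : ZMod 23,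
      dot₂ (qrWord t) (maskVec o.2) = 0) ∧ dot₂ 1 (maskVec o.2) = 0) ∧
    (o.1 = 1 → ∀ b ∈ Golay.basisMasks,
      Golay.inCode (Golay.toMask (permAt coordPerms o.2 • Golay.ofMask b)) = true) := by
  decide +kernel

/-- A column of the traces is correct for a reversed product. -/
def traceOK : List (ℕ × ℕ) → List (List ℕ) → ℕ → Prop
  | [], _, _ => True
  | o :: l, rows, i => (∀ q, opFun o (dec ((rows.getD 0 []).getD i 0)) q =
      dec ((rows.getD 1 []).getD i 0) q) ∧ traceOK l rows.tail i

instance decidableTraceOK : ∀ l rows i, Decidable (traceOK l rows i)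
  | [], _, _ => inferInstanceAs (Decidable True)
  | o :: l, rows, i =>
    haveI := decidableTraceOK l rows.tail i
    inferInstanceAs (Decidable (_ ∧ _))

theorem trace_apply : ∀ (l : List (ℕ × ℕ)) (rows : List (List ℕ)) (i : ℕ), (∀ o ∈ l, opOK o) →
    traceOK l rows i → ∀ v : leechLattice,
    (v : GolayPt → ℤ) = dec ((rows.getD 0 []).getD i 0) →
    (((l.reverse.map opElt).prod • v : leechLattice) : GolayPt → ℤ) =
      dec ((rows.getD l.length []).getD i 0)
  | [], rows, i, _, _, v, hv => by simpa using hv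
  | o :: l, rows, i, hl, ht, v, hv => by
    rw [List.reverse_cons, List.map_append, List.prod_append, List.map_singleton,
      List.prod_singleton, mul_smul]
    have h0 : ((opElt o • v : leechLattice) : GolayPt → ℤ) = dec ((rows.getD 1 []).getD i 0) := by
      rw [opElt_apply (hl o List.mem_cons_self), hv]
      exact funext ht.1
    have hr : rows.tail.getD 0 [] = rows.getD 1 [] ∧
        rows.tail.getD l.length [] = rows.getD (l.length + 1) [] := by
      cases rows <;> simp
    rw [trace_apply l rows.tail i (fun o ho => hl o (List.mem_cons_of_mem _ ho)) ht.2 _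
      (by rw [hr.1]; exact h0), hr.2]
    rfl

theorem vec_checks : (∀ i : Fin 275, CheckLeech (dec (vecCodes.getD i 0))) ∧
    (vecCodes.map fun c => c).Nodup ∧ vecCodes.all (fun c => decide (c < 2 ^ 120)) = true ∧
    vecCodes.length = 275 := by
  decide +kernel

/-- One of the 275 vectors. -/
def vec (i : Fin 275) : leechLattice :=
  ⟨dec (vecCodes.getD i 0), mem_leech_of_check (vec_checks.1 i)⟩

theorem vec_injective : Function.Injective vec := by
  intro i j e
  have e' : dec (vecCodes.getD i.val 0) = dec (vecCodes.getD j.val 0) := congrArg Subtype.val e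
  obtain ⟨-, hnd, hlt, hlen⟩ := vec_checks
  simp only [List.map_id'] at hnd
  simp only [List.all_eq_true, decide_eq_true_eq] at hlt
  have hi : i.val < vecCodes.length := by rw [hlen]; exact i.2
  have hj : j.val < vecCodes.length := by rw [hlen]; exact j.2
  rw [List.getD_eq_getElem _ _ hi, List.getD_eq_getElem _ _ hj] at e'
  refine Fin.ext ((List.Nodup.getElem_inj_iff hnd (hi := hi) (hj := hj)).1 ?_)
  have key : ∀ k < 24, (vecCodes[i.val] >>> (5 * k)) % 32 = (vecCodes[j.val] >>> (5 * k)) % 32 := by
    intro k hk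
    have := congrFun e' (Golay.pt ⟨k, hk⟩)
    simp only [dec, Golay.idx_pt] at this
    omega
  have hrec : ∀ a b m : ℕ, a < 2 ^ (5 * m) → b < 2 ^ (5 * m) →
      (∀ k < m, (a >>> (5 * k)) % 32 = (b >>> (5 * k)) % 32) → a = b := by
    intro a b m
    induction m generalizing a b with
    | zero => intro ha hb _; simp at ha hb; omega
    | succ m ih =>
      intro ha hb hk
      rw [show 5 * (m + 1) = 5 + 5 * m by omega, pow_add] at ha hb
      have h0 := hk 0 (by omega)
      simp only [Nat.mul_zero, Nat.shiftRight_zero] at h0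
      have h1 : a / 32 = b / 32 := ih _ _ (by omega) (by omega) fun k hk' => by
        have := hk (k + 1) (by omega)
        simp only [Nat.shiftRight_eq_div_pow] at this ⊢
        rw [show 5 * (k + 1) = 5 + 5 * k by omega, pow_add, ← Nat.div_div_eq_div_mul,
          ← Nat.div_div_eq_div_mul] at this
        simpa using this
      omega
  exact hrec _ _ 24 (hlt _ (List.getElem_mem _)) (hlt _ (List.getElem_mem _)) key

theorem trace_checks : ∀ a < 7, (∀ i < 277, traceOK (genOps.getD a []).reverse (traces.getD a []) i) ∧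
    (traces.getD a []).length = (genOps.getD a []).length + 1 := by
  decide +kernel

theorem trace_ends : ∀ a < 7, (∀ i : Fin 275, ((traces.getD a []).getD 0 []).getD i 0 = vecCodes.getD i 0 ∧
      ((traces.getD a []).getD (genOps.getD a []).length []).getD i 0 =
        vecCodes.getD (PackedPerm.img gFwd a i) 0) ∧
    (∀ q, dec (((traces.getD a []).getD 0 []).getD 275 0) q = Spor.vecU q ∧
      dec (((traces.getD a []).getD (genOps.getD a []).length []).getD 275 0) q = Spor.vecU q) ∧
    (∀ q, dec (((traces.getD a []).getD 0 []).getD 276 0) q = Spor.vecV q ∧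
      dec (((traces.getD a []).getD (genOps.getD a []).length []).getD 276 0) q = Spor.vecV q) := by
  decide +kernel

/-- A generator in the lattice group. -/
noncomputable def genElt (a : ℕ) : Co0 := ((genOps.getD a []).map opElt).prod

theorem genElt_apply {a : ℕ} (ha : a < 7) {i : ℕ} (hi : i < 277) (v : leechLattice)
    (hv : (v : GolayPt → ℤ) = dec (((traces.getD a []).getD 0 []).getD i 0)) :
    ((genElt a • v : leechLattice) : GolayPt → ℤ) =
      dec (((traces.getD a []).getD (genOps.getD a []).length []).getD i 0) := by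
  have hok : ∀ o ∈ (genOps.getD a []).reverse, opOK o := by
    intro o ho
    rw [List.mem_reverse] at ho
    by_cases h : a < genOps.length
    · rw [List.getD_eq_getElem _ _ h] at ho
      exact ops_checks _ (List.getElem_mem _) o ho
    · rw [List.getD_eq_default _ _ (by omega)] at ho
      simp at ho
  have := trace_apply _ _ i hok ((trace_checks a ha).1 i hi) v hv
  rwa [List.reverse_reverse, List.length_reverse] at this

/-- The elements fixing the two vectors with the induced permutation of the 275. -/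
def compat : Subgroup (Co0 × Equiv.Perm (Fin 275)) where
  carrier := {p | p.1 • Spor.leechU = Spor.leechU ∧ p.1 • Spor.leechV = Spor.leechV ∧
    ∀ i, p.1 • vec i = vec (p.2 i)}
  one_mem' := ⟨one_smul _ _, one_smul _ _, fun _ => one_smul _ _⟩
  mul_mem' := by
    rintro a b ⟨a1, a2, a3⟩ ⟨b1, b2, b3⟩
    refine ⟨?_, ?_, fun i => ?_⟩
    · rw [Prod.fst_mul, mul_smul, b1, a1]
    · rw [Prod.fst_mul, mul_smul, b2, a2]
    · rw [Prod.fst_mul, mul_smul, b3, a3]; rfl
  inv_mem' := by
    rintro a ⟨a1, a2, a3⟩
    refine ⟨?_, ?_, fun i => ?_⟩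
    · rw [Prod.fst_inv, inv_smul_eq_iff, a1]
    · rw [Prod.fst_inv, inv_smul_eq_iff, a2]
    · rw [Prod.fst_inv, inv_smul_eq_iff, a3]
      show vec i = vec (a.2 (a.2.symm i))
      rw [Equiv.apply_symm_apply]

/-- A generator as a pair. -/
noncomputable def genPair (a : ℕ) : Co0 × Equiv.Perm (Fin 275) := (genElt a, gperm a)

theorem genPair_mem {a : ℕ} (ha : a < 7) : genPair a ∈ compat := by
  obtain ⟨h1, h2, h3⟩ := trace_ends a ha
  refine ⟨Subtype.ext ?_, Subtype.ext ?_, fun i => Subtype.ext ?_⟩
  · show ((genElt a • Spor.leechU : leechLattice) : GolayPt → ℤ) = Spor.vecU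
    rw [genElt_apply ha (i := 275) (by norm_num) _ (funext fun q => (h2 q).1.symm)]
    exact funext fun q => (h2 q).2
  · show ((genElt a • Spor.leechV : leechLattice) : GolayPt → ℤ) = Spor.vecV
    rw [genElt_apply ha (i := 276) (by norm_num) _ (funext fun q => (h3 q).1.symm)]
    exact funext fun q => (h3 q).2
  · show ((genElt a • vec i : leechLattice) : GolayPt → ℤ) = dec (vecCodes.getD (gperm a i).val 0)
    rw [genElt_apply ha (i := i.val) (by omega) _ (by rw [(h1 i).1]; rfl), (h1 i).2, gperm,
      PackedPerm.toPerm, dif_pos (tables_ok.2.symm ▸ ha)]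
    rfl

theorem card_sporMcL_le : Nat.card Spor.McL ≤ 898128000 := by
  let w : leechLattice := -(Spor.leechU + Spor.leechV)
  have hwv : (w : GolayPt → ℤ) = fun q => -(Spor.vecU q + Spor.vecV q) := rfl
  have h2 : nrm w = 32 := by
    show sqNorm (w : GolayPt → ℤ) = 32
    rw [hwv]; decide +kernel
  have h3 : ip Spor.leechU w = -8 := by
    show dotInt Spor.vecU (w : GolayPt → ℤ) = -8
    rw [hwv]; decide +kernel
  have hc := card_mcl mcl_base.1 h2 h3
  haveI : Finite (pairStab Spor.leechU w) := inferInstance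
  rw [← hc]
  refine Nat.card_le_card_of_injective (fun g : Spor.McL =>
    (⟨⟨g.1, g.2.1.1⟩, g.2.2, show (⟨g.1, g.2.1.1⟩ : Co0) • w = w by
      have e1 : (⟨g.1, g.2.1.1⟩ : Co0) • Spor.leechU = Spor.leechU := g.2.2
      have e2 : (⟨g.1, g.2.1.1⟩ : Co0) • Spor.leechV = Spor.leechV := g.2.1.2
      rw [co0_map_neg, co0_map_add, e1, e2]⟩ : pairStab Spor.leechU w)) fun g g' e => ?_
  exact Subtype.ext (congrArg (fun x : pairStab Spor.leechU w => x.1.1) e)

theorem nonempty_equiv : Nonempty (K ≃* Spor.McL) := by
  let P : Subgroup (Co0 × Equiv.Perm (Fin 275)) := Chain.seg genPair 7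
  have hP : P ≤ compat := by
    rw [show P = Subgroup.closure _ from rfl, Subgroup.closure_le]
    rintro _ ⟨a, ha, rfl⟩
    exact genPair_mem ha
  have hPK : P.map (MonoidHom.snd _ _) = K := by
    rw [show P = Subgroup.closure _ from rfl, MonoidHom.map_closure]
    refine congrArg Subgroup.closure (Set.ext fun g => ?_)
    constructor
    · rintro ⟨_, ⟨a, ha, rfl⟩, rfl⟩; exact ⟨a, ha, rfl⟩
    · rintro ⟨a, ha, rfl⟩; exact ⟨_, ⟨a, ha, rfl⟩, rfl⟩
  let toM : P →* Spor.McL :=
    { toFun := fun p => ⟨p.1.1.1, ⟨p.1.1.2, (hP p.2).2.1⟩, (hP p.2).1⟩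
      map_one' := rfl
      map_mul' := fun _ _ => rfl }
  let toK : P →* K :=
    { toFun := fun p => ⟨p.1.2, hPK ▸ Subgroup.mem_map_of_mem (MonoidHom.snd _ _) p.2⟩
      map_one' := rfl
      map_mul' := fun _ _ => rfl }
  have hinjM : Function.Injective toM := by
    rintro ⟨⟨g, σ⟩, hp⟩ ⟨⟨g', σ'⟩, hp'⟩ e
    obtain rfl : g = g' := Subtype.ext (congrArg (fun x : Spor.McL => x.1) e)
    have : σ = σ' := Equiv.ext fun i => vec_injective (((hP hp).2.2 i).symm.trans ((hP hp').2.2 i))
    subst this
    rfl
  have hsK : Function.Surjective toK := by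
    rintro ⟨g, hg⟩
    obtain ⟨p, hp, rfl⟩ : g ∈ P.map (MonoidHom.snd _ _) := hPK ▸ hg
    exact ⟨⟨p, hp⟩, rfl⟩
  haveI : Finite Spor.McL := Finite.of_injective (fun g : Spor.McL => (⟨g.1, g.2.1.1⟩ : Co0))
    fun g g' e => Subtype.ext (congrArg (fun x : Co0 => x.1) e)
  have h1 := Nat.card_le_card_of_injective toM hinjM
  have h2 := Nat.card_le_card_of_surjective toK hsK
  have h3 := card_sporMcL_le
  rw [card_K] at h2
  have eK := MulEquiv.ofBijective toK
    ((Nat.bijective_iff_surjective_and_card _).2 ⟨hsK, by rw [card_K]; omega⟩)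
  have eM := MulEquiv.ofBijective toM
    ((Nat.bijective_iff_injective_and_card _).2 ⟨hinjM, by omega⟩)
  exact ⟨eK.symm.trans eM⟩

theorem isSimpleGroup_K : IsSimpleGroup K := by
  obtain ⟨e⟩ := nonempty_equiv
  let w : leechLattice := -(Spor.leechU + Spor.leechV)
  have h2 : nrm w = 32 := by
    show sqNorm (fun q => -(Spor.vecU q + Spor.vecV q)) = 32
    decide +kernel
  have h3 : ip Spor.leechU w = -8 := by
    show dotInt Spor.vecU (fun q => -(Spor.vecU q + Spor.vecV q)) = -8
    decide +kernel
  haveI := mcl_isSimpleGroup mcl_base.1 h2 h3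
  let ψ : Spor.McL →* pairStab Spor.leechU w :=
    { toFun := fun g => ⟨⟨g.1, g.2.1.1⟩, g.2.2, show (⟨g.1, g.2.1.1⟩ : Co0) • w = w by
        have e1 : (⟨g.1, g.2.1.1⟩ : Co0) • Spor.leechU = Spor.leechU := g.2.2
        have e2 : (⟨g.1, g.2.1.1⟩ : Co0) • Spor.leechV = Spor.leechV := g.2.1.2
        rw [co0_map_neg, co0_map_add, e1, e2]⟩
      map_one' := rfl
      map_mul' := fun _ _ => rfl }
  have hψ : Function.Injective ψ := fun g g' h =>
    Subtype.ext (congrArg (fun x : pairStab Spor.leechU w => x.1.1) h)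
  have hψ2 : Function.Bijective ψ := (Nat.bijective_iff_injective_and_card _).2 ⟨hψ, by
    rw [← Nat.card_congr e.toEquiv, card_K, card_mcl mcl_base.1 h2 h3]⟩
  exact (e.trans (MulEquiv.ofBijective ψ hψ2)).isSimpleGroup

end CfsgLib.McLCover
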