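import Cfsg.Agent.McLCover.Model
import Cfsg.Agent.McLCover.BlockData
import Cfsg.Agent.McLCover.StepH.Upper
import Cfsg.Agent.Schur.Monomial

/-!
The stabiliser of a point of the 275, its relators, and the homomorphism onto the triple cover of it
modulo the shifts, a monomial group on 126 points.
-/

set_option autoImplicit false
set_option maxRecDepth 100000

namespace CfsgLib.McLCover

open CfsgLib.CosetEnum CfsgLib.Schur

attribute [local irreducible] gFwd gBwd extraRels uWords hLevels basePts hWords bFwd bBwd edgeWords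
  hExtraRels

/-- The relators of the point stabiliser. -/
def hRels : List (List ℕ) := M22Cover.rels.filter (fun w => w.all fun x => x.blt 5) ++ hExtraRels

theorem hRels_lt : hRels.all (fun w => w.all fun x => x.blt 6) = true := by decide +kernel

theorem hRels_sq : (List.range 6).all (fun x => hRels.contains [x, x]) = true := by decide +kernel

section Bound

variable {Q : Type} [Group Q] (v : ℕ → Q)

/-- Any group generated by six elements with these relations has order at most 3265920. -/
theorem card_hseg_le (hv : ∀ w ∈ hRels, gword v w = 1) :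
    Nat.card (Chain.seg v 6) ≤ 3265920 ∧ Nat.card (Chain.seg v 6) ≠ 0 := by
  have hsq : ∀ x < 6, v x * v x = 1 := by
    intro x hx
    simpa [gword] using hv _ (List.contains_iff_mem.1
      (List.all_eq_true.1 hRels_sq x (List.mem_range.2 hx)))
  have h1 : Nat.card (Chain.seg v 1) ≤ 2 ∧ Nat.card (Chain.seg v 1) ≠ 0 := by
    have : Chain.seg v 1 = Subgroup.zpowers (v 0) := by
      rw [Subgroup.zpowers_eq_closure, Chain.seg]
      exact congrArg Subgroup.closure (Set.ext fun z =>
        ⟨fun ⟨x, hx, e⟩ => by rw [Nat.lt_one_iff.1 hx] at e; exact e.symm,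
          fun e => ⟨0, Nat.one_pos, e.symm⟩⟩)
    rw [this, Nat.card_zpowers]
    have hd : orderOf (v 0) ∣ 2 :=
      orderOf_dvd_of_pow_eq_one (by rw [pow_two, hsq 0 (by norm_num)])
    exact ⟨Nat.le_of_dvd (by norm_num) hd, fun h0 => by rw [h0] at hd; norm_num at hd⟩
  have h2 := Chain.step (m := 1) (n := 5) (c := 10) v hRels 6 hRels_lt hsq hv rfl (fun _ => rfl)
    M22Cover.Step2.facts M22Cover.Step2.n_pos M22Cover.Step2.node_zero M22Cover.Step2.rows rfl
    (by decide +kernel) (by norm_num) h1 (by norm_num)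
  have h3 := Chain.step (m := 2) (n := 6) (c := 60) v hRels 6 hRels_lt hsq hv rfl (fun _ => rfl)
    M22Cover.Step3.facts M22Cover.Step3.n_pos M22Cover.Step3.node_zero M22Cover.Step3.rows rfl
    (by decide +kernel) (by norm_num) h2 (by norm_num)
  have h4 := Chain.step (m := 3) (n := 16) (c := 960) v hRels 6 hRels_lt hsq hv rfl (fun _ => rfl)
    M22Cover.Step4.facts M22Cover.Step4.n_pos M22Cover.Step4.node_zero M22Cover.Step4.rows rfl
    (by decide +kernel) (by norm_num) h3 (by norm_num)
  have h5 := Chain.step (m := 4) (n := 21) (c := 20160) v hRels 6 hRels_lt hsq hv rfl (fun _ => rfl)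
    M22Cover.Step5.facts M22Cover.Step5.n_pos M22Cover.Step5.node_zero M22Cover.Step5.rows rfl
    (by decide +kernel) (by norm_num) h4 (by norm_num)
  exact Chain.step (m := 5) (n := 162) v hRels 6 hRels_lt hsq hv rfl (fun _ => rfl) StepH.facts
    StepH.n_pos StepH.node_zero StepH.rows rfl (by decide +kernel) (by norm_num) h5 (by norm_num)

end Bound

/-- A generator of the point stabiliser. -/
def hperm (j : ℕ) : Equiv.Perm (Fin 275) := gword gperm (hWords.getD j [])

theorem gword_expand (w : List ℕ) : gword gperm (expand w) = gword hperm w := by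
  induction w with
  | nil => rfl
  | cons k w ih =>
    rw [expand, List.flatMap_cons, PackedPerm.gword_concat, gword_cons]
    exact congrArg (gword gperm (hWords.getD k []) * ·) ih

theorem hperm_rels : ∀ w ∈ hRels, gword hperm w = 1 := by
  have key : hRels.all (fun w => sameB (expand w) []) = true := by decide +kernel
  intro w hw
  rw [← gword_expand, gword_eq_of_sameB (List.all_eq_true.1 key w hw)]
  rfl

/-- The point stabiliser. -/
def HK : Subgroup (Equiv.Perm (Fin 275)) := Chain.seg hperm 6

theorem hperm_mem {x : ℕ} (hx : x < 6) : hperm x ∈ HK := Subgroup.subset_closure ⟨x, hx, rfl⟩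

theorem h_checks : hWords.all (fun w => w.all fun x => decide (x < gFwd.length)) = true ∧
    hLevels.all (fun l => l.all fun w => w.all fun x => decide (x < 6)) = true ∧
    (List.range 6).all (fun j => PackedPerm.act gFwd (hWords.getD j []) (basePts.getD 0 0) ==
      basePts.getD 0 0) = true ∧
    (List.range 4).all (PackedBase.levelOK 275 gFwd (hLevels.map fun l => l.map expand)
      basePts.tail) = true ∧
    ((List.range 4).map fun j => ((hLevels.map fun l => l.map expand).getD j []).length).prod =
      3265920 ∧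
    basePts.getD 0 0 < 275 ∧ hWords.length = 6 := by
  decide +kernel

theorem card_HK : Nat.card HK = 3265920 := by
  refine le_antisymm (card_hseg_le hperm hperm_rels).1 ?_
  obtain ⟨-, hlt, -, hok, hprod, -, -⟩ := h_checks
  rw [← hprod]
  refine PackedBase.prod_le_card tables_ok.1 HK _ basePts.tail 4 hok fun k hk w hw => ?_
  rw [List.getD_eq_getElem?_getD, List.getElem?_map] at hw
  cases he : hLevels[k]? with
  | none => rw [he] at hw; simp at hw
  | some l =>
    rw [he] at hw
    simp only [Option.map_some, Option.getD_some, List.mem_map] at hw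
    obtain ⟨u, hu, rfl⟩ := hw
    show gword gperm (expand u) ∈ HK
    rw [gword_expand]
    exact gword_mem HK _ fun x hx => hperm_mem (of_decide_eq_true (List.all_eq_true.1
      (List.all_eq_true.1 (List.all_eq_true.1 hlt l (List.mem_of_getElem? he)) u hu) x hx))

/-- The fixed point. -/
def pt0 : Fin 275 := ⟨basePts.getD 0 0, h_checks.2.2.2.2.2.1⟩

theorem hperm_fix {x : ℕ} (hx : x < 6) : hperm x pt0 = pt0 := by
  obtain ⟨hl, -, hfix, -, -, -, hlen⟩ := h_checks
  refine Fin.ext ?_
  show ((gword (PackedPerm.toPerm tables_ok.1) (hWords.getD x [])) pt0).val = basePts.getD 0 0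
  rw [PackedPerm.word_apply tables_ok.1 (by
    rw [List.getD_eq_getElem _ _ (hlen.symm ▸ hx)]
    exact List.all_eq_true.1 hl _ (List.getElem_mem _))]
  exact beq_iff_eq.1 (List.all_eq_true.1 hfix x (List.mem_range.2 hx))

theorem hperm_mem_K {x : ℕ} (hx : x < 6) : hperm x ∈ K := by
  refine gword_mem_K ?_
  obtain ⟨hl, -, -, -, -, -, hlen⟩ := h_checks
  rw [List.getD_eq_getElem _ _ (hlen.symm ▸ hx)]
  exact List.all_eq_true.1 hl _ (List.getElem_mem _)

theorem HK_le : HK ≤ K ⊓ MulAction.stabilizer (Equiv.Perm (Fin 275)) pt0 := by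
  rw [HK, Chain.seg, Subgroup.closure_le]
  rintro _ ⟨x, hx, rfl⟩
  exact ⟨hperm_mem_K hx, hperm_fix hx⟩

theorem u_checks : uWords.length = 275 ∧
    uWords.all (fun w => w.all fun x => decide (x < gFwd.length)) = true ∧
    (List.range 275).all (fun i => PackedPerm.act gFwd (uWords.getD i []) (basePts.getD 0 0) == i) =
      true := by
  decide +kernel

/-- An element moving the fixed point to a given point. -/
def uPerm (x : Fin 275) : Equiv.Perm (Fin 275) := gword gperm (uWords.getD x [])

theorem uPerm_mem (x : Fin 275) : uPerm x ∈ K := by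
  refine gword_mem_K ?_
  rw [List.getD_eq_getElem _ _ (by rw [u_checks.1]; exact x.2)]
  exact List.all_eq_true.1 u_checks.2.1 _ (List.getElem_mem _)

theorem uPerm_apply (x : Fin 275) : uPerm x pt0 = x := by
  refine Fin.ext ?_
  show ((gword (PackedPerm.toPerm tables_ok.1) _) pt0).val = x.val
  rw [PackedPerm.word_apply tables_ok.1 (by
    rw [List.getD_eq_getElem _ _ (by rw [u_checks.1]; exact x.2)]
    exact List.all_eq_true.1 u_checks.2.1 _ (List.getElem_mem _))]
  exact beq_iff_eq.1 (List.all_eq_true.1 u_checks.2.2 x.val (List.mem_range.2 x.2))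

/-- An element of the group fixing the point lies in the point stabiliser. -/
theorem mem_HK {g : Equiv.Perm (Fin 275)} (hg : g ∈ K) (hfix : g pt0 = pt0) : g ∈ HK := by
  suffices h : Nat.card ↥(K ⊓ MulAction.stabilizer (Equiv.Perm (Fin 275)) pt0) ≤ Nat.card HK by
    rw [Subgroup.eq_of_le_of_card_ge HK_le h]
    exact ⟨hg, hfix⟩
  let f : Fin 275 × ↥(K ⊓ MulAction.stabilizer (Equiv.Perm (Fin 275)) pt0) → K := fun p =>
    ⟨uPerm p.1 * p.2.1, mul_mem (uPerm_mem p.1) p.2.2.1⟩
  have hf : Function.Injective f := by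
    rintro ⟨i, s⟩ ⟨j, t⟩ e
    have e' : uPerm i * s.1 = uPerm j * t.1 := congrArg Subtype.val e
    have e2 := congrArg (fun q : Equiv.Perm (Fin 275) => q pt0) e'
    simp only [Equiv.Perm.mul_apply, show s.1 pt0 = pt0 from s.2.2, show t.1 pt0 = pt0 from t.2.2,
      uPerm_apply] at e2
    subst e2
    exact Prod.ext rfl (Subtype.ext (mul_left_cancel e'))
  have := Nat.card_le_card_of_injective f hf
  rw [Nat.card_prod, Nat.card_fin, card_K] at this
  rw [card_HK]
  omega

/-! ### The cover of the point stabiliser -/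

/-- The tables. -/
def TB : Monomial.Tables := ⟨126, 3, 7, fun x => bFwd.getD x 0, fun x => bBwd.getD x 0⟩

theorem TB_check : Monomial.check TB = true := by decide +kernel

/-- The triple cover of the point stabiliser. -/
abbrev HT : Type := ↥(Monomial.Gam TB_check)

instance finite_HT : Finite HT := Monomial.finite_Gam TB_check

theorem TB_rels : hRels.all (fun w => w.all (fun x => decide (x < TB.L)) && (List.range TB.n).all
    fun i => (Monomial.evalN TB w i).1 == i &&
      (Monomial.evalN TB w i).2 == (Monomial.evalN TB w 0).2) = true := by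
  decide +kernel

/-- The shifts. -/
abbrev ZB : Subgroup HT := Subgroup.zpowers (Monomial.zC TB_check)

instance ZB_normal : (ZB : Subgroup HT).Normal := ⟨fun n hn g => by
  rw [Subgroup.mem_center_iff.1 (Monomial.zpowers_zC_le_center TB_check hn) g, mul_inv_cancel_right]
  exact hn⟩

/-- A generator modulo the shifts. -/
def qLetter (x : ℕ) : HT ⧸ ZB := QuotientGroup.mk' ZB (Monomial.letterG TB_check x)

theorem qLetter_unit : qLetter 6 = 1 :=
  (QuotientGroup.eq_one_iff _).2 (Subgroup.mem_zpowers _)

theorem exists_phi : ∃ φ : HK →* HT ⧸ ZB,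
    ∀ (x : ℕ) (hx : x < 6), φ ⟨hperm x, hperm_mem hx⟩ = qLetter x := by
  let v : ℕ → Equiv.Perm (Fin 275) × (HT ⧸ ZB) := fun x => (hperm x, qLetter x)
  have hv : ∀ w ∈ hRels, gword v w = 1 := fun w hw => Prod.ext
    (show MonoidHom.fst _ _ (gword v w) = 1 from (gword_map _ _ _).trans (hperm_rels w hw))
    (show MonoidHom.snd _ _ (gword v w) = 1 from (gword_map _ _ _).trans (by
      have hh := List.all_eq_true.1 TB_rels w hw
      rw [Bool.and_eq_true] at hh
      show gword (fun x => QuotientGroup.mk' ZB (Monomial.letterG TB_check x)) w = 1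
      rw [← gword_map, ← MonoidHom.mem_ker, QuotientGroup.ker_mk']
      exact Monomial.gword_mem_zpowers TB_check hh.1 hh.2))
  obtain ⟨hle, hne⟩ := card_hseg_le v hv
  set P := Chain.seg v 6
  haveI : Finite P := Nat.finite_of_card_ne_zero hne
  have hfst : P.map (MonoidHom.fst _ _) = HK := by
    rw [show P = Subgroup.closure _ from rfl, MonoidHom.map_closure]
    refine congrArg Subgroup.closure (Set.ext fun g => ?_)
    constructor
    · rintro ⟨_, ⟨a, ha, rfl⟩, rfl⟩; exact ⟨a, ha, rfl⟩
    · rintro ⟨a, ha, rfl⟩; exact ⟨_, ⟨a, ha, rfl⟩, rfl⟩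
  let f : P →* HK :=
    { toFun := fun p => ⟨p.1.1, hfst ▸ Subgroup.mem_map_of_mem (MonoidHom.fst _ _) p.2⟩
      map_one' := rfl
      map_mul' := fun _ _ => rfl }
  have hf : Function.Surjective f := by
    rintro ⟨g, hg⟩
    obtain ⟨p, hp, rfl⟩ : g ∈ P.map (MonoidHom.fst _ _) := hfst ▸ hg
    exact ⟨⟨p, hp⟩, rfl⟩
  let e := MulEquiv.ofBijective f ((Nat.bijective_iff_surjective_and_card f).2
    ⟨hf, le_antisymm (card_HK ▸ hle) (Nat.card_le_card_of_surjective f hf)⟩)
  refine ⟨((MonoidHom.snd _ _).comp P.subtype).comp e.symm.toMonoidHom, fun x hx => ?_⟩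
  have he : e.symm ⟨hperm x, hperm_mem hx⟩ = ⟨v x, Subgroup.subset_closure ⟨x, hx, rfl⟩⟩ :=
    e.injective (by rw [MulEquiv.apply_symm_apply]; rfl)
  show (Subgroup.subtype P (e.symm ⟨hperm x, hperm_mem hx⟩)).2 = _
  rw [he]; rfl

end CfsgLib.McLCover
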