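import Cfsg.Agent.McLCover.Cover
import Cfsg.Agent.McLCover.CertsData
import Cfsg.Agent.Schur.PrimeCertWords

/-!
The certificates for the multiplier of `McL`: the primes two and five on the simple group, the prime three
on its triple cover.
-/

set_option autoImplicit false
set_option maxRecDepth 100000

noncomputable section

namespace CfsgLib.McLCover

open CfsgLib.CosetEnum CfsgLib.Schur
open scoped commutatorElement

attribute [local irreducible] gFwd gBwd basePts bFwd bBwd edgeWords twoElts twoWords twoCert threeElts
  threeWords threeCert fiveElts fiveWords fiveCert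

/-- A letter in the simple group. -/
def genK (a : ℕ) : K := if h : a < 7 then ⟨gperm a, gperm_mem h⟩ else 1

/-- The letters of a word lie among the generators. -/
def domK (w : List ℕ) : Bool := w.all fun x => decide (x < gFwd.length)

theorem genK_gword {w : List ℕ} (hw : domK w = true) :
    ((gword genK w : K) : Equiv.Perm (Fin 275)) = gword gperm w := by
  rw [show ((gword genK w : K) : Equiv.Perm (Fin 275)) = K.subtype (gword genK w) from rfl, gword_map]
  refine gword_congr _ _ fun x hx => ?_
  have h7 : x < 7 := tables_ok.2 ▸ of_decide_eq_true (List.all_eq_true.1 hw x hx)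
  rw [genK, dif_pos h7]
  rfl

/-- The images of the base. -/
def codeK (w : List ℕ) : ℕ :=
  ((List.range 5).map fun j => PackedPerm.act gFwd w (basePts.getD j 0) <<< (16 * j)).sum

theorem base_lt : ∀ j < 5, basePts.getD j 0 < 275 := fun j hj => by
  have h := List.all_eq_true.1 chain_checks.1 j (List.mem_range.2 hj)
  simp only [PackedBase.levelOK, Bool.and_eq_true, decide_eq_true_eq] at h
  exact h.1.2

theorem codeK_congr {u w : List ℕ} (hu : domK u = true) (hw : domK w = true)
    (e : gword gperm u = gword gperm w) : codeK u = codeK w := by
  refine congrArg List.sum (List.map_congr_left fun j hj => ?_)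
  have hb := base_lt j (List.mem_range.1 hj)
  rw [show basePts.getD j 0 = (⟨_, hb⟩ : Fin 275).val from rfl,
    ← PackedPerm.word_apply tables_ok.1 hu, ← PackedPerm.word_apply tables_ok.1 hw]
  exact congrArg (fun g : Equiv.Perm (Fin 275) => (g _).val <<< (16 * j)) e

theorem same_K (u w : List ℕ) (h : sameB u w = true) : gword genK u = gword genK w := by
  have h' := h
  simp only [sameB, Bool.and_eq_true] at h'
  refine Subtype.ext ?_
  rw [genK_gword h'.1.1, genK_gword h'.1.2, gword_eq_of_sameB h]

theorem code_K (u w : List ℕ) (hu : domK u = true) (hw : domK w = true)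
    (e : gword genK u = gword genK w) : codeK u = codeK w :=
  codeK_congr hu hw (by rw [← genK_gword hu, ← genK_gword hw, e])

/-- The letters of a word lie among the generators of the cover. -/
def domT (w : List ℕ) : Bool := w.all fun x => decide (x < 8)

theorem domT_lt {w : List ℕ} (h : domT w = true) : ∀ a ∈ w, a < 8 := fun a ha =>
  of_decide_eq_true (List.all_eq_true.1 h a ha)

/-- The images of the base and the shift at one point. -/
def codeT (w : List ℕ) : ℕ := codeK (stripZ w) + ((evT w 0 0).2.2 % 3) <<< 80

theorem stripZ_dom {w : List ℕ} : domK (stripZ w) = true := List.all_eq_true.2 fun x hx =>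
  decide_eq_true (tables_ok.2.symm ▸ Nat.le_of_ble_eq_true (List.mem_filter.1 hx).2)

theorem code_T (u w : List ℕ) (hu : domT u = true) (hw : domT w = true)
    (e : gword lG u = gword lG w) : codeT u = codeT w := by
  have hK : gword gperm (stripZ u) = gword gperm (stripZ w) := by
    rw [← rho_gword u (domT_lt hu), ← rho_gword w (domT_lt hw), e]
  let x0 : Fin 275 := ⟨0, by norm_num⟩
  have h1 := (gword_evT u (domT_lt hu) x0 q0.1).2.2
  have h2 := (gword_evT w (domT_lt hw) x0 q0.1).2.2
  rw [e, h2] at h1
  simp only [show x0.val = 0 from rfl, show q0.1.val = 0 from rfl] at h1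
  unfold codeT
  rw [codeK_congr stripZ_dom stripZ_dom hK, (ZMod.natCast_eq_natCast_iff' _ _ 3).1 h1]

theorem check_two : PrimeCert.wordsOK twoCert twoElts twoWords domK sameB codeK = true ∧
    twoCert.p = 2 ∧ twoCert.n = 7 := by decide +kernel

theorem check_five : PrimeCert.wordsOK fiveCert fiveElts fiveWords domK sameB codeK = true ∧
    fiveCert.p = 5 ∧ fiveCert.n = 3 := by decide +kernel

theorem check_three : PrimeCert.wordsOK threeCert threeElts threeWords domT sameT codeT = true ∧
    threeCert.p = 3 ∧ threeCert.n = 7 := by decide +kernel

end CfsgLib.McLCover
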