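import Cfsg.Agent.McLCover.Block

/-!
The triple cover of `McL` as permutations of 275 blocks, each a copy of the points of the cover of the point
stabiliser, and the comparison of its elements by their effect on the base and on one point.
-/

set_option autoImplicit false
set_option maxRecDepth 100000

noncomputable section

namespace CfsgLib.McLCover

open CfsgLib.CosetEnum CfsgLib.Schur
open scoped commutatorElement

attribute [local irreducible] gFwd gBwd extraRels uWords hLevels basePts hWords bFwd bBwd edgeWords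
  tails threeA threeB

/-- The points of the cover. -/
abbrev Pt : Type := Fin 275 × (Fin TB.n × ZMod TB.m)

/-- The block word of a generator at a point. -/
def edge (a x : ℕ) : List ℕ := (edgeWords.getD a []).getD x []

/-- A letter, the last one being the shift. -/
def lperm (a : ℕ) : Equiv.Perm Pt :=
  if a < 7 then Equiv.prodShear (gperm a) fun x =>
    ((gword (Monomial.letterG TB_check) (edge a x.val) : HT) : Equiv.Perm _)
  else Equiv.prodShear 1 fun _ => ((Monomial.zC TB_check : HT) : Equiv.Perm _)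

/-- The permutation of blocks of a letter. -/
def gbase (a : ℕ) : Equiv.Perm (Fin 275) := if a < 7 then gperm a else 1

/-- The block of a letter. -/
def lblock (a : ℕ) (x : Fin 275) : HT :=
  if a < 7 then gword (Monomial.letterG TB_check) (edge a x.val) else Monomial.zC TB_check

theorem lperm_apply (a : ℕ) (x : Fin 275) (q : Fin TB.n × ZMod TB.m) :
    lperm a (x, q) = (gbase a x, ((lblock a x : HT) : Equiv.Perm _) q) := by
  unfold lperm gbase lblock
  split <;> rfl

theorem gbase_mem (a : ℕ) : gbase a ∈ K := by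
  unfold gbase
  split
  · next h => exact gperm_mem h
  · exact one_mem K

/-- The element of the point stabiliser at a point. -/
def hPart (g : Equiv.Perm (Fin 275)) (hg : g ∈ K) (x : Fin 275) : HK :=
  ⟨(uPerm (g x))⁻¹ * g * uPerm x,
    mem_HK (mul_mem (mul_mem (inv_mem (uPerm_mem _)) hg) (uPerm_mem _)) (by
      rw [Equiv.Perm.mul_apply, Equiv.Perm.mul_apply, uPerm_apply, Equiv.Perm.inv_def,
        Equiv.symm_apply_eq, uPerm_apply])⟩

/-- The homomorphism to the cover of the point stabiliser modulo shifts. -/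
def phi : HK →* HT ⧸ ZB := exists_phi.choose

theorem phi_spec (x : ℕ) (hx : x < 6) : phi ⟨hperm x, hperm_mem hx⟩ = qLetter x :=
  exists_phi.choose_spec x hx

/-- The word without the shifts. -/
def stripU (w : List ℕ) : List ℕ := w.filter fun x => x.blt 6

theorem mk_gword : ∀ w : List ℕ, (∀ x ∈ w, x < 7) →
    QuotientGroup.mk' ZB (gword (Monomial.letterG TB_check) w) = gword qLetter (stripU w)
  | [], _ => map_one _
  | x :: w, h => by
    have ih := mk_gword w fun y hy => h y (List.mem_cons_of_mem _ hy)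
    rw [gword_cons, map_mul, ih]
    by_cases hx : x < 6
    · rw [show stripU (x :: w) = x :: stripU w from List.filter_cons_of_pos (Nat.ble_eq_true_of_le hx),
        gword_cons]
      rfl
    · have h6 : x = 6 := by have := h x List.mem_cons_self; omega
      subst h6
      rw [show stripU (6 :: w) = stripU w from List.filter_cons_of_neg (by decide)]
      show qLetter 6 * _ = _
      rw [qLetter_unit, one_mul]

/-- A generator inside the point stabiliser. -/
def hgen (x : ℕ) : HK := if h : x < 6 then ⟨hperm x, hperm_mem h⟩ else 1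

theorem phi_gword {w : List ℕ} (hw : ∀ x ∈ w, x < 6) :
    ((gword hgen w : HK) : Equiv.Perm (Fin 275)) = gword hperm w ∧
      phi (gword hgen w) = gword qLetter w := by
  constructor
  · rw [show ((gword hgen w : HK) : Equiv.Perm (Fin 275)) = HK.subtype (gword hgen w) from rfl,
      gword_map]
    exact gword_congr _ _ fun x hx => by rw [hgen, dif_pos (hw x hx)]; rfl
  · rw [gword_map]
    exact gword_congr _ _ fun x hx => by rw [hgen, dif_pos (hw x hx)]; exact phi_spec x (hw x hx)

theorem edge_checks : (List.range 7).all (fun a => (List.range 275).all fun x =>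
    (edge a x).all (fun k => decide (k < 7)) &&
      sameB (a :: uWords.getD x [])
        (uWords.getD (PackedPerm.img gFwd a x) [] ++ expand (stripU (edge a x)))) = true := by
  decide +kernel

theorem lblock_spec (a : ℕ) (x : Fin 275) :
    QuotientGroup.mk' ZB (lblock a x) = phi (hPart (gbase a) (gbase_mem a) x) := by
  by_cases ha : a < 7
  · have h := List.all_eq_true.1 (List.all_eq_true.1 edge_checks a (List.mem_range.2 ha)) x.val
      (List.mem_range.2 x.2)
    rw [Bool.and_eq_true] at h
    obtain ⟨hlt, he⟩ := h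
    simp only [List.all_eq_true, decide_eq_true_eq] at hlt
    have hs : ∀ k ∈ stripU (edge a x), k < 6 := fun k hk =>
      Nat.le_of_ble_eq_true (List.mem_filter.1 hk).2
    obtain ⟨p1, p2⟩ := phi_gword hs
    rw [lblock, if_pos ha, mk_gword _ hlt, ← p2]
    refine congrArg phi (Subtype.ext ?_)
    show _ = (uPerm (gbase a x))⁻¹ * gbase a * uPerm x
    have e := gword_eq_of_sameB he
    rw [gword_cons, PackedPerm.gword_concat, gword_expand] at e
    have hgx : ((gperm a) x).val = PackedPerm.img gFwd a x := by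
      rw [gperm, PackedPerm.toPerm, dif_pos (tables_ok.2.symm ▸ ha)]; rfl
    rw [p1, gbase, if_pos ha, mul_assoc, eq_inv_mul_iff_mul_eq, uPerm, uPerm, hgx]
    exact e.symm
  · rw [lblock, if_neg ha, show QuotientGroup.mk' ZB (Monomial.zC TB_check) = 1 from
      (QuotientGroup.eq_one_iff _).2 (Subgroup.mem_zpowers _), ← map_one phi]
    refine congrArg phi (Subtype.ext ?_)
    show (1 : Equiv.Perm (Fin 275)) = (uPerm (gbase a x))⁻¹ * gbase a * uPerm x
    rw [gbase, if_neg ha]
    simp

/-- A permutation acts through a group element on blocks and compatibly inside them. -/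
def Good (γ : Equiv.Perm Pt) : Prop :=
  ∃ (g : Equiv.Perm (Fin 275)) (hg : g ∈ K), ∀ x, ∃ e : HT,
    (∀ q, γ (x, q) = (g x, (e : Equiv.Perm _) q)) ∧ QuotientGroup.mk' ZB e = phi (hPart g hg x)

/-- The group. -/
def Gam : Subgroup (Equiv.Perm Pt) := Subgroup.closure {γ | ∃ a < 8, lperm a = γ}

instance finite_Pt : Finite Pt := by
  haveI : NeZero TB.m := ⟨(Monomial.check_unit TB_check).2.1.ne'⟩
  infer_instance

/-- The triple cover. -/
abbrev Three : Type := ↥Gam

instance finite_Three : Finite Three := inferInstance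

theorem good_of_mem {γ : Equiv.Perm Pt} (hγ : γ ∈ Gam) : Good γ := by
  have hγ' : γ ∈ Gam.toSubmonoid := hγ
  rw [Gam, Subgroup.closure_toSubmonoid_of_finite] at hγ'
  clear hγ
  induction hγ' using Submonoid.closure_induction with
  | mem γ h =>
    obtain ⟨a, -, rfl⟩ := h
    exact ⟨gbase a, gbase_mem a, fun x => ⟨lblock a x, lperm_apply a x, lblock_spec a x⟩⟩
  | one =>
    refine ⟨1, one_mem K, fun x => ⟨1, fun q => rfl, ?_⟩⟩
    rw [map_one, ← map_one phi]
    refine congrArg phi (Subtype.ext ?_)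
    show (1 : Equiv.Perm (Fin 275)) = (uPerm x)⁻¹ * 1 * uPerm x
    simp
  | mul γ δ _ _ hγ hδ =>
    obtain ⟨g, hg, h1⟩ := hγ
    obtain ⟨k, hk, h2⟩ := hδ
    refine ⟨g * k, mul_mem hg hk, fun x => ?_⟩
    obtain ⟨d, hd, hd'⟩ := h2 x
    obtain ⟨e, he, he'⟩ := h1 (k x)
    refine ⟨e * d, fun q => ?_, ?_⟩
    · rw [Equiv.Perm.mul_apply, hd, he]; rfl
    · rw [map_mul, he', hd', ← map_mul]
      refine congrArg phi (Subtype.ext ?_)
      show (uPerm (g (k x)))⁻¹ * g * uPerm (k x) * ((uPerm (k x))⁻¹ * k * uPerm x) =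
        (uPerm ((g * k) x))⁻¹ * (g * k) * uPerm x
      rw [Equiv.Perm.mul_apply]
      group

/-- The permutation of blocks. -/
def basePerm (γ : Three) : Equiv.Perm (Fin 275) := (good_of_mem γ.2).choose

theorem basePerm_mem (γ : Three) : basePerm γ ∈ K := (good_of_mem γ.2).choose_spec.choose

theorem basePerm_spec (γ : Three) (x : Fin 275) : ∃ e : HT,
    (∀ q, (γ : Equiv.Perm Pt) (x, q) = (basePerm γ x, (e : Equiv.Perm _) q)) ∧
      QuotientGroup.mk' ZB e = phi (hPart (basePerm γ) (basePerm_mem γ) x) :=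
  (good_of_mem γ.2).choose_spec.choose_spec x

/-- A base point inside the blocks. -/
def q0 : Fin TB.n × ZMod TB.m := (⟨0, (Monomial.check_unit TB_check).1⟩, 0)

theorem basePerm_unique (γ : Three) {g : Equiv.Perm (Fin 275)}
    (h : ∀ x, ((γ : Equiv.Perm Pt) (x, q0)).1 = g x) : basePerm γ = g := by
  refine Equiv.ext fun x => ?_
  obtain ⟨e, he, -⟩ := basePerm_spec γ x
  rw [← h x, he q0]

/-- The map to the simple group. -/
def rho : Three →* K where
  toFun γ := ⟨basePerm γ, basePerm_mem γ⟩
  map_one' := Subtype.ext (basePerm_unique 1 fun _ => rfl)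
  map_mul' γ δ := Subtype.ext (basePerm_unique (γ * δ) fun x => by
    obtain ⟨d, hd, -⟩ := basePerm_spec δ x
    obtain ⟨e, he, -⟩ := basePerm_spec γ (basePerm δ x)
    show (((γ : Equiv.Perm Pt) * (δ : Equiv.Perm Pt)) (x, q0)).1 = (basePerm γ * basePerm δ) x
    rw [Equiv.Perm.mul_apply, hd, he]
    rfl)

/-- A letter in the group. -/
def lG (a : ℕ) : Three :=
  if h : a < 8 then ⟨lperm a, Subgroup.subset_closure ⟨a, h, rfl⟩⟩ else 1

theorem lG_coe {a : ℕ} (ha : a < 8) : (lG a : Equiv.Perm Pt) = lperm a := by rw [lG, dif_pos ha]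

theorem rho_lG {a : ℕ} (ha : a < 8) : (rho (lG a) : Equiv.Perm (Fin 275)) = gbase a :=
  basePerm_unique (lG a) fun x => by rw [lG_coe ha, lperm_apply]

/-- The word without the shifts. -/
def stripZ (w : List ℕ) : List ℕ := w.filter fun x => x.blt 7

theorem rho_gword : ∀ w : List ℕ, (∀ a ∈ w, a < 8) →
    (rho (gword lG w) : Equiv.Perm (Fin 275)) = gword gperm (stripZ w)
  | [], _ => by rw [gword_nil, map_one]; rfl
  | a :: w, h => by
    rw [gword_cons, map_mul, Subgroup.coe_mul, rho_gword w fun y hy => h y (List.mem_cons_of_mem _ hy),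
      rho_lG (h a List.mem_cons_self), gbase]
    by_cases ha : a < 7
    · rw [if_pos ha, show stripZ (a :: w) = a :: stripZ w from
        List.filter_cons_of_pos (Nat.ble_eq_true_of_le ha), gword_cons]
    · rw [if_neg ha, show stripZ (a :: w) = stripZ w from
        List.filter_cons_of_neg (fun e => ha (Nat.le_of_ble_eq_true e)), one_mul]

/-- The image of a point under a letter. -/
def stepT (a : ℕ) (st : ℕ × ℕ × ℕ) : ℕ × ℕ × ℕ :=
  if a < 7 then
    match Monomial.evalN TB (edge a st.1) st.2.1 with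
    | (j, t) => (PackedPerm.img gFwd a st.1, j, (st.2.2 + t) % 3)
  else (st.1, st.2.1, (st.2.2 + 1) % 3)

/-- The image of a point under a word. -/
def evT (w : List ℕ) (x i : ℕ) : ℕ × ℕ × ℕ := w.foldr stepT (x, i, 0)

theorem zC_apply' (q : Fin TB.n × ZMod TB.m) :
    ((Monomial.zC TB_check : HT) : Equiv.Perm _) q = (q.1, q.2 + 1) := Monomial.zC_apply TB_check q

theorem gword_evT : ∀ w : List ℕ, (∀ a ∈ w, a < 8) → ∀ (x : Fin 275) (i : Fin TB.n),
    (((gword lG w : Three) : Equiv.Perm Pt) (x, (i, 0))).1.val = (evT w x i).1 ∧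
    (((gword lG w : Three) : Equiv.Perm Pt) (x, (i, 0))).2.1.val = (evT w x i).2.1 ∧
    (((gword lG w : Three) : Equiv.Perm Pt) (x, (i, 0))).2.2 = (((evT w x i).2.2 : ℕ) : ZMod TB.m)
  | [], _, x, i => ⟨rfl, rfl, by simp [evT, gword_nil]⟩
  | a :: w, h, x, i => by
    obtain ⟨i1, i2, i3⟩ := gword_evT w (fun y hy => h y (List.mem_cons_of_mem _ hy)) x i
    rw [gword_cons, Subgroup.coe_mul, Equiv.Perm.mul_apply]
    generalize ((gword lG w : Three) : Equiv.Perm Pt) (x, (i, 0)) = p at i1 i2 i3 ⊢
    obtain ⟨x', j, s⟩ := p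
    rw [lG_coe (h a List.mem_cons_self), lperm_apply]
    show (gbase a x').val = (stepT a (evT w x i)).1 ∧ _
    simp only at i1 i2 i3
    by_cases ha : a < 7
    · have hx : edge a (evT w x i).1 = edge a x'.val := by rw [i1]
      have hlt : ∀ k ∈ edge a x'.val, k < TB.L := by
        have h' := List.all_eq_true.1 (List.all_eq_true.1 edge_checks a (List.mem_range.2 ha)) x'.val
          (List.mem_range.2 x'.2)
        rw [Bool.and_eq_true] at h'
        exact fun k hk => of_decide_eq_true (List.all_eq_true.1 h'.1 k hk)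
      obtain ⟨a1, a2⟩ := Monomial.gword_apply TB_check hlt (j, s)
      simp only [stepT, if_pos ha, evT, List.foldr_cons]
      rw [show List.foldr stepT (↑x, ↑i, 0) w = evT w x i from rfl, hx, ← i2]
      refine ⟨?_, ?_, ?_⟩
      · rw [gbase, if_pos ha, gperm, PackedPerm.toPerm, dif_pos (tables_ok.2.symm ▸ ha), ← i1]
        rfl
      · show (((lblock a x' : HT) : Equiv.Perm _) (j, s)).1.val = _
        rw [lblock, if_pos ha]
        exact a1
      · show (((lblock a x' : HT) : Equiv.Perm _) (j, s)).2 = _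
        rw [lblock, if_pos ha, a2, i3]
        show _ = ((((evT w x i).2.2 + (Monomial.evalN TB (edge a x') j).2) % TB.m : ℕ) : ZMod TB.m)
        rw [ZMod.natCast_mod, Nat.cast_add]
    · simp only [stepT, if_neg ha, evT, List.foldr_cons]
      rw [show List.foldr stepT (↑x, ↑i, 0) w = evT w x i from rfl]
      refine ⟨by rw [gbase, if_neg ha]; exact i1, ?_, ?_⟩
      · show (((lblock a x' : HT) : Equiv.Perm _) (j, s)).1.val = _
        rw [lblock, if_neg ha, zC_apply']; exact i2
      · show (((lblock a x' : HT) : Equiv.Perm _) (j, s)).2 = _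
        rw [lblock, if_neg ha, zC_apply', i3]
        show _ = ((((evT w x i).2.2 + 1) % TB.m : ℕ) : ZMod TB.m)
        rw [ZMod.natCast_mod, Nat.cast_add, Nat.cast_one]

/-- The shift. -/
def zG : Three := lG 7

theorem zG_pow_apply (k : ℕ) (x : Fin 275) (q : Fin TB.n × ZMod TB.m) :
    ((zG ^ k : Three) : Equiv.Perm Pt) (x, q) = (x, (q.1, q.2 + k)) := by
  induction k with
  | zero => simp
  | succ k ih =>
    rw [pow_succ', Subgroup.coe_mul, Equiv.Perm.mul_apply, ih, zG, lG_coe (by norm_num), lperm_apply,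
      gbase, if_neg (by norm_num), lblock, if_neg (by norm_num), zC_apply', Nat.cast_succ, add_assoc]
    rfl

theorem zG_pow_three : zG ^ 3 = 1 := by
  refine Subtype.ext (Equiv.ext fun p => ?_)
  rw [show p = (p.1, p.2) from rfl, zG_pow_apply,
    show ((3 : ℕ) : ZMod TB.m) = 0 from ZMod.natCast_self 3, add_zero]
  rfl

theorem orderOf_zG : orderOf zG = 3 := by
  haveI : Fact (Nat.Prime 3) := ⟨Nat.prime_three⟩
  refine orderOf_eq_prime zG_pow_three fun e => ?_
  have e' := congrArg (fun g : Three => ((g : Equiv.Perm Pt) (pt0, q0)).2.2) e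
  have h := zG_pow_apply 1 pt0 q0
  rw [pow_one] at h
  simp only [h, Nat.cast_one] at e'
  exact absurd e' (by decide)

theorem lG_comm_zG (a : ℕ) : lG a * zG = zG * lG a := by
  by_cases ha : a < 8
  · refine Subtype.ext (Equiv.ext fun p => ?_)
    obtain ⟨x, i, s⟩ := p
    have hz := Monomial.zC_central TB_check
    rw [Subgroup.mem_center_iff] at hz
    have e := congrArg (fun g : HT => (g : Equiv.Perm _) (i, s)) (hz (lblock a x))
    simp only [Subgroup.coe_mul, Equiv.Perm.mul_apply] at e ⊢
    rw [zG, lG_coe ha, lG_coe (by norm_num), lperm_apply, lperm_apply 7, lperm_apply a,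
      lperm_apply 7]
    simp only [gbase, lblock, if_neg (show ¬ (7 : ℕ) < 7 by norm_num), Equiv.Perm.one_apply] at e ⊢
    rw [e]
  · rw [lG, dif_neg ha, one_mul, mul_one]

theorem closure_lG : Subgroup.closure {γ : Three | ∃ a < 8, lG a = γ} = ⊤ := by
  refine Subgroup.map_injective (f := Gam.subtype) Subtype.val_injective ?_
  rw [MonoidHom.map_closure, ← MonoidHom.range_eq_map, Subgroup.range_subtype]
  show _ = Subgroup.closure _
  refine congrArg Subgroup.closure (Set.ext fun γ => ?_)
  constructor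
  · rintro ⟨_, ⟨a, ha, rfl⟩, rfl⟩; exact ⟨a, ha, (lG_coe ha).symm⟩
  · rintro ⟨a, ha, rfl⟩; exact ⟨_, ⟨a, ha, rfl⟩, lG_coe ha⟩

theorem zG_central : zG ∈ Subgroup.center Three := by
  refine Subgroup.mem_center_iff.2 fun g => ?_
  refine Subgroup.closure_induction (p := fun g _ => g * zG = zG * g) ?_ (by simp)
    (fun u v _ _ hu hv => by rw [mul_assoc, hv, ← mul_assoc, hu, mul_assoc])
    (fun u _ hu => (Commute.inv_left (show Commute u zG from hu)).eq)
    (closure_lG ▸ Subgroup.mem_top g)
  rintro _ ⟨a, -, rfl⟩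
  exact lG_comm_zG a

/-- The shifts. -/
abbrev Z3 : Subgroup Three := Subgroup.zpowers zG

instance Z3_normal : (Z3 : Subgroup Three).Normal := ⟨fun n hn g => by
  rw [Subgroup.mem_center_iff.1 ((Subgroup.zpowers_le.2 zG_central) hn) g, mul_inv_cancel_right]
  exact hn⟩

theorem rho_surjective : Function.Surjective rho := by
  rw [← MonoidHom.range_eq_top]
  refine Subgroup.map_injective (f := K.subtype) Subtype.val_injective ?_
  rw [MonoidHom.map_range, ← MonoidHom.range_eq_map K.subtype, Subgroup.range_subtype]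
  refine le_antisymm ?_ ?_
  · rintro _ ⟨γ, rfl⟩; exact (rho γ).2
  · show Chain.seg gperm 7 ≤ _
    rw [Chain.seg, Subgroup.closure_le]
    rintro _ ⟨a, ha, rfl⟩
    refine ⟨lG a, ?_⟩
    show (rho (lG a) : Equiv.Perm (Fin 275)) = gperm a
    rw [rho_lG (by omega), gbase, if_pos ha]

theorem shift_of_base_one (γ : Three) (h : rho γ = 1) (x : Fin 275) :
    ∃ k : ℕ, ∀ q, (γ : Equiv.Perm Pt) (x, q) = (x, (q.1, q.2 + (k : ZMod TB.m))) := by
  obtain ⟨e, he, he'⟩ := basePerm_spec γ x
  have hb : basePerm γ = 1 := congrArg Subtype.val h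
  have hh : hPart (basePerm γ) (basePerm_mem γ) x = 1 := Subtype.ext (by
    show (uPerm (basePerm γ x))⁻¹ * basePerm γ * uPerm x = 1
    rw [hb]; simp)
  rw [hh, map_one] at he'
  obtain ⟨k, hk⟩ := mem_powers_iff_mem_zpowers.2 ((QuotientGroup.eq_one_iff _).1 he')
  refine ⟨k, fun q => ?_⟩
  rw [he, hb, ← hk]
  exact Prod.ext rfl (Monomial.zC_pow_apply TB_check k q)

theorem rel_checks : (List.range mclRels.length).all (fun r => (List.range 275).all fun x =>
    (evT (mclRels.getD r []) x 0).2.2 == tails.getD r 0) = true := by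
  decide +kernel

theorem gword_rel {w : List ℕ} (hw : w ∈ mclRels) : gword lG w ∈ Z3 := by
  obtain ⟨r, hr, rfl⟩ := List.getElem_of_mem hw
  have hlt : ∀ a ∈ mclRels[r], a < 8 := fun a ha => Nat.lt_succ_of_lt
    (Nat.le_of_ble_eq_true (List.all_eq_true.1 (List.all_eq_true.1 mclRels_lt _ hw) a ha))
  have hrho : rho (gword lG mclRels[r]) = 1 := Subtype.ext (by
    rw [rho_gword _ hlt, show stripZ mclRels[r] = mclRels[r] from List.filter_eq_self.2 fun a ha =>
      List.all_eq_true.1 (List.all_eq_true.1 mclRels_lt _ hw) a ha, gperm_rels _ hw]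
    rfl)
  refine ⟨(tails.getD r 0 : ℤ), ?_⟩
  simp only [zpow_natCast]
  refine Subtype.ext (Equiv.ext fun p => ?_)
  obtain ⟨x, q⟩ := p
  obtain ⟨k, hk⟩ := shift_of_base_one _ hrho x
  rw [zG_pow_apply, hk]
  have h1 := (gword_evT _ hlt x q0.1).2.2
  have h2 := beq_iff_eq.1 (List.all_eq_true.1 (List.all_eq_true.1 rel_checks r
    (List.mem_range.2 hr)) x.val (List.mem_range.2 x.2))
  rw [List.getD_eq_getElem _ _ hr] at h2
  rw [show ((x, (q0.1, 0)) : Pt) = (x, q0) from rfl, hk] at h1
  simp only [show q0.1.val = 0 from rfl, h2] at h1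
  rw [show q0.2 = 0 from rfl, zero_add] at h1
  rw [h1]

theorem ker_rho : rho.ker = Z3 := by
  have hle : Z3 ≤ rho.ker := Subgroup.zpowers_le.2 (MonoidHom.mem_ker.2 (Subtype.ext (by
    rw [zG, rho_lG (by norm_num), gbase, if_neg (by norm_num)]; rfl)))
  let ρ' : Three ⧸ Z3 →* K := QuotientGroup.lift Z3 rho hle
  have hsurj : Function.Surjective ρ' := fun g => by
    obtain ⟨γ, hγ⟩ := rho_surjective g
    exact ⟨γ, hγ⟩
  let v : ℕ → Three ⧸ Z3 := fun a => QuotientGroup.mk' Z3 (lG a)
  have hv : ∀ w ∈ mclRels, gword v w = 1 := fun w hw => by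
    show gword (fun a => QuotientGroup.mk' Z3 (lG a)) w = 1
    rw [← gword_map, ← MonoidHom.mem_ker, QuotientGroup.ker_mk']
    exact gword_rel hw
  have htop : Chain.seg v 7 = ⊤ := by
    rw [eq_top_iff]
    intro c _
    obtain ⟨γ, rfl⟩ := QuotientGroup.mk'_surjective Z3 c
    have hle' : Subgroup.closure {γ : Three | ∃ a < 8, lG a = γ} ≤
        (Chain.seg v 7).comap (QuotientGroup.mk' Z3) := by
      rw [Subgroup.closure_le]
      rintro _ ⟨a, ha, rfl⟩
      show QuotientGroup.mk' Z3 (lG a) ∈ Chain.seg v 7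
      rcases Nat.lt_or_ge a 7 with h | h
      · exact Subgroup.subset_closure ⟨a, h, rfl⟩
      · rw [show a = 7 by omega, show QuotientGroup.mk' Z3 (lG 7) = 1 from
          (QuotientGroup.eq_one_iff _).2 (Subgroup.mem_zpowers zG)]
        exact one_mem _
    exact hle' (closure_lG ▸ Subgroup.mem_top γ)
  have hc := (card_seg_le v hv).1
  rw [htop, Subgroup.card_top] at hc
  have hinj : Function.Injective ρ' :=
    ((Nat.bijective_iff_surjective_and_card ρ').2 ⟨hsurj,
      le_antisymm (card_K ▸ hc) (Nat.card_le_card_of_surjective ρ' hsurj)⟩).1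
  refine le_antisymm (fun γ hγ => ?_) hle
  exact (QuotientGroup.eq_one_iff γ).1 (hinj (show ρ' (γ : Three ⧸ Z3) = ρ' 1 by
    rw [map_one]; exact MonoidHom.mem_ker.1 hγ))

theorem card_Three : Nat.card Three = 2694384000 := by
  rw [Subgroup.card_eq_card_quotient_mul_card_subgroup rho.ker,
    Nat.card_congr (QuotientGroup.quotientKerEquivOfSurjective rho rho_surjective).toEquiv, card_K,
    ker_rho, Nat.card_zpowers, orderOf_zG]

/-- Two words give the same element of the cover. -/
def sameT (u w : List ℕ) : Bool :=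
  u.all (fun a => decide (a < 8)) && w.all (fun a => decide (a < 8)) &&
    sameB (stripZ u) (stripZ w) && (evT u 0 0).2.2 == (evT w 0 0).2.2

theorem gword_eq_of_sameT {u w : List ℕ} (h : sameT u w = true) : gword lG u = gword lG w := by
  simp only [sameT, Bool.and_eq_true, List.all_eq_true, decide_eq_true_eq, beq_iff_eq] at h
  obtain ⟨⟨⟨hu, hw⟩, hb⟩, hz⟩ := h
  have hmem : (gword lG w)⁻¹ * gword lG u ∈ rho.ker := by
    refine MonoidHom.mem_ker.2 ?_
    rw [map_mul, map_inv, inv_mul_eq_one]
    exact Subtype.ext (by rw [rho_gword w hw, rho_gword u hu, gword_eq_of_sameB hb])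
  rw [ker_rho, ← mem_powers_iff_mem_zpowers] at hmem
  obtain ⟨k, hk⟩ := hmem
  have he : gword lG u = zG ^ k * gword lG w := by
    rw [← Subgroup.mem_center_iff.1 (pow_mem zG_central k) (gword lG w),
      show zG ^ k = _ from hk, mul_inv_cancel_left]
  let x0 : Fin 275 := ⟨0, by norm_num⟩
  have h1 := (gword_evT u hu x0 q0.1).2.2
  have h2 := (gword_evT w hw x0 q0.1).2.2
  rw [he, Subgroup.coe_mul, Equiv.Perm.mul_apply] at h1
  generalize ((gword lG w : Three) : Equiv.Perm Pt) (x0, (q0.1, 0)) = p at h1 h2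
  rw [zG_pow_apply k p.1 p.2] at h1
  simp only [show x0.val = 0 from rfl, show q0.1.val = 0 from rfl, hz] at h1 h2
  rw [h2, add_eq_left] at h1
  have hk3 : 3 ∣ k := (ZMod.natCast_eq_zero_iff k 3).1 h1
  obtain ⟨j, rfl⟩ := hk3
  rw [he, pow_mul, zG_pow_three, one_pow, one_mul]

theorem exists_threefold : ∃ σ : Three →* K, Cfsg.IsStemExtension σ ∧
    σ.ker = Z3 := by
  refine ⟨rho, ⟨rho_surjective, ?_, ?_⟩, ker_rho⟩
  · rw [ker_rho]; exact Subgroup.zpowers_le.2 zG_central
  · rw [ker_rho, Subgroup.zpowers_le]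
    have hok : sameT (threeA ++ threeB ++ [7]) (threeB ++ threeA) = true := by decide +kernel
    have e := gword_eq_of_sameT hok
    rw [PackedPerm.gword_concat, PackedPerm.gword_concat, PackedPerm.gword_concat] at e
    have hz : zG = ⁅(gword lG threeB)⁻¹, (gword lG threeA)⁻¹⁆ := by
      rw [show gword lG [7] = zG from by rw [gword_cons, gword_nil, mul_one]; rfl, eq_comm,
        ← inv_mul_eq_iff_eq_mul] at e
      rw [← e, commutatorElement_def]
      group
    rw [hz, commutator_def]
    exact Subgroup.commutator_mem_commutator (Subgroup.mem_top _) (Subgroup.mem_top _)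

end CfsgLib.McLCover
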