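import Cfsg.Agent.McLCover.Certs
import Cfsg.Agent.Schur.CoverBound
import Cfsg.Agent.M22Cover.Multiplier
import Cfsg.Agent.SchurMult.Cover

/-!
The Schur multiplier of `McL` is cyclic of order three.
-/

set_option autoImplicit false
set_option maxRecDepth 100000

noncomputable section

namespace CfsgLib.McLCover

open CfsgLib.CosetEnum Cfsg CfsgLib.Schur
open scoped commutatorElement

attribute [local irreducible] gFwd gBwd basePts bFwd bBwd edgeWords twoElts twoWords twoCert threeElts
  threeWords threeCert fiveElts fiveWords fiveCert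

theorem not_two_dvd {Δ : Type} [Group Δ] [Finite Δ] {σ : Δ →* K} (hσ : Cfsg.IsStemExtension σ) :
    ¬ 2 ∣ Nat.card σ.ker := by
  obtain ⟨h, hp, hn⟩ := check_two
  have := PrimeCert.not_dvd_of_words genK same_K code_K (by rw [hp]; exact Nat.prime_two) h
    (m := 7016625) (by rw [card_K, hp, hn]; norm_num) (by rw [hp]; norm_num) hσ
  rwa [hp] at this

theorem not_five_dvd {Δ : Type} [Group Δ] [Finite Δ] {σ : Δ →* K} (hσ : Cfsg.IsStemExtension σ) :
    ¬ 5 ∣ Nat.card σ.ker := by
  obtain ⟨h, hp, hn⟩ := check_five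
  have := PrimeCert.not_dvd_of_words genK same_K code_K (by rw [hp]; norm_num) h
    (m := 7185024) (by rw [card_K, hp, hn]; norm_num) (by rw [hp]; norm_num) hσ
  rwa [hp] at this

theorem not_three_dvd_Three {Δ : Type} [Group Δ] [Finite Δ] {σ : Δ →* Three}
    (hσ : Cfsg.IsStemExtension σ) : ¬ 3 ∣ Nat.card σ.ker := by
  obtain ⟨h, hp, hn⟩ := check_three
  have := PrimeCert.not_dvd_of_words lG (fun u w e => gword_eq_of_sameT e) code_T
    (by rw [hp]; exact Nat.prime_three) h (m := 1232000) (by rw [card_Three, hp, hn]; norm_num)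
    (by rw [hp]; norm_num) hσ
  rwa [hp] at this

theorem perfect_K : commutator K = ⊤ := by
  haveI := isSimpleGroup_K
  refine ((Subgroup.normal_of_characteristic (commutator K)).eq_bot_or_eq_top).resolve_left fun hbot => ?_
  have hne : sameB [0, 6] [6, 0] = false ∧ domK [0, 6] = true ∧ domK [6, 0] = true := by decide +kernel
  obtain ⟨hne, h1, h2⟩ := hne
  have hc : gword genK [0, 6] = gword genK [6, 0] := by
    have : ⁅genK 0, genK 6⁆ = 1 := by
      rw [← Subgroup.mem_bot, ← hbot, commutator_def]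
      exact Subgroup.commutator_mem_commutator (Subgroup.mem_top _) (Subgroup.mem_top _)
    rw [gword_cons, gword_cons, gword_cons, gword_cons, gword_nil, mul_one, mul_one]
    exact commutatorElement_eq_one_iff_mul_comm.1 this
  have e : gword gperm [0, 6] = gword gperm [6, 0] := by rw [← genK_gword h1, ← genK_gword h2, hc]
  refine Bool.eq_false_iff.1 hne ?_
  simp only [sameB, Bool.and_eq_true, List.all_eq_true (l := List.range 5), List.mem_range, beq_iff_eq]
  refine ⟨⟨h1, h2⟩, fun j hj => ?_⟩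
  rw [show basePts.getD j 0 = (⟨_, base_lt j hj⟩ : Fin 275).val from rfl,
    ← PackedPerm.word_apply tables_ok.1 h1, ← PackedPerm.word_apply tables_ok.1 h2]
  exact congrArg (fun g : Equiv.Perm (Fin 275) => (g _).val) e

theorem not_nine_dvd {Δ : Type} [Group Δ] [Finite Δ] {σ : Δ →* K} (hσ : Cfsg.IsStemExtension σ) :
    ¬ 3 ^ 2 ∣ Nat.card σ.ker := by
  haveI : Fact (Nat.Prime 3) := ⟨Nat.prime_three⟩
  obtain ⟨q, hq, hk⟩ := exists_threefold
  refine CoverBound.not_pow_dvd perfect_K hq (fun σ hσ => not_three_dvd_Three hσ) ?_ hσ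
  rw [hk, Nat.card_zpowers, orderOf_zG]
  decide

theorem multiplier_K : Cfsg.HasCyclicSchurMultiplier K 3 := by
  obtain ⟨q, hq, hk⟩ := exists_threefold
  have hc : Nat.card q.ker = 3 := by rw [hk, Nat.card_zpowers, orderOf_zG]
  haveI : Fact (Nat.Prime 3) := ⟨Nat.prime_three⟩
  haveI : IsCyclic q.ker := isCyclic_of_prime_card hc
  refine SchurMult.hasSchurMultiplier_of_stem_of_bound hq
    (mulEquivOfCyclicCardEq (by rw [hc, Nat.card_eq_fintype_card]; simp)) fun Δ _ _ τ hτ => ?_
  rw [hc]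
  refine Nat.le_of_dvd (by norm_num) ?_
  rw [Nat.dvd_iff_prime_pow_dvd_dvd]
  intro p k hp hpk
  rcases Nat.eq_zero_or_pos k with rfl | hk0
  · simp
  by_cases e3 : p = 3
  · subst e3
    rcases Nat.lt_or_ge k 2 with h | h
    · interval_cases k; norm_num
    · exact absurd ((pow_dvd_pow 3 h).trans hpk) (not_nine_dvd hτ)
  refine absurd ((dvd_pow_self p hk0.ne').trans hpk) ?_
  by_cases e2 : p = 2
  · subst e2; exact not_two_dvd hτ
  by_cases e5 : p = 5
  · subst e5; exact not_five_dvd hτ
  haveI := Fact.mk hp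
  refine M22Cover.not_dvd_ker_of_not_sq_dvd hτ fun h => ?_
  rw [card_K] at h
  have hco : Nat.Coprime (p ^ 2) (2 ^ 7 * 3 ^ 6 * 5 ^ 3) := Nat.Coprime.pow_left 2
    (Nat.Coprime.mul_right (Nat.Coprime.mul_right
      (((Nat.coprime_primes hp Nat.prime_two).2 e2).pow_right _)
      (((Nat.coprime_primes hp Nat.prime_three).2 e3).pow_right _))
      (((Nat.coprime_primes hp (by norm_num)).2 e5).pow_right _))
  have h' : p ^ 2 ∣ 77 := hco.dvd_of_dvd_mul_left
    (show p ^ 2 ∣ 2 ^ 7 * 3 ^ 6 * 5 ^ 3 * 77 by norm_num; exact h)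
  have hle := Nat.le_of_dvd (by norm_num) h'
  have hlt : p < 9 := by nlinarith
  interval_cases p <;> revert h' hp <;> norm_num

theorem multiplier_McL : Cfsg.HasCyclicSchurMultiplier ↥Cfsg.Spor.McL 3 := by
  obtain ⟨e⟩ := nonempty_equiv
  exact SchurMult.hasSchurMultiplier_congr_left e multiplier_K

end CfsgLib.McLCover
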